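import Cfsg.Agent.H520.FC.Fin1
import Cfsg.Agent.H520.FC.Idx
import Cfsg.Agent.H962.FC.Mixed
import Cfsg.Agent.H374.TC.CuMain

/-!
# `F₄(q)`, `q ≥ 5` odd: `2 |C(g)| < d2²` for `p`-singular `g`, not a long root element (helper520; S2464, S2452)
-/

set_option autoImplicit false
set_option linter.unusedSectionVars false

namespace Cfsg.Agent.H520.FC

open Subgroup CoxeterSystem Cfsg.Agent.ChevalleyStructure.CoxeterGeom Cfsg.Agent.Tits.Core
  Cfsg.Agent.Tits.Exchange Cfsg.Agent.Nodes.Reps Cfsg.Agent.Nodes.BNOf Cfsg.Agent.Nodes.StabComb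
  Cfsg.Agent.Nodes.Bruhat Cfsg.Agent.Nodes.OppDec Cfsg.Agent.Nodes.LeviDec Cfsg.Agent.Nodes.NormX
  Cfsg.Agent.Nodes.Coroot Cfsg.Agent.Nodes.RGDChev Cfsg.Agent.KFacts.RgdPar Cfsg.Agent.KFacts.RgdTI
  Cfsg.Agent.KFacts.RgdCent Cfsg.Agent.KFacts.RgdChevCoord Cfsg.Agent.Nodes.ChevCls
  Cfsg.Agent.OddHalf.NI.ModelChev Cfsg.Agent.H225.PPow
open Cfsg.Agent.Tits.Roots hiding ht
open Cfsg.Agent.OddHalf.D4.LineRgd (ht)
open Cfsg.Lie Cfsg.Agent.ChevalleyStructure Cfsg.Agent.ChevalleyStructure.Elts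
  Cfsg.Agent.ChevalleyStructure.RootVec Cfsg.Agent.ChevalleyStructure.NPerm
  Cfsg.Agent.ChevalleyStructure.CoxeterGeomTypes
open Cfsg.Agent.H701.F43.Cent (hF cF nroots finW)
open Cfsg.Agent.KFacts.RgdBorelTits Cfsg.Agent.KFacts.RgdFilt

universe u

/-- the four cases -/
def Cas (q p N : ℕ) : Prop :=
  (q - 1) * p * N ≤ ((1 + q) * (1 + q + q ^ 2) * (1 + q)) * (q ^ 24 * (q - 1) ^ 4) ∨
    (q - 1) * p * N ≤ ((1 + q) * (1 + q) * (1 + q ^ 2)) * (q ^ 24 * (q - 1) ^ 4) ∨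
    q ^ 7 * N ≤ ((1 + q) * ((1 + q) * (1 + q ^ 2)) * ((1 + q + q ^ 2) * (1 + q ^ 3))) * (q ^ 24 * (q - 1) ^ 4) ∨
    (q - 1) ^ 2 * q ^ 5 * N ≤
      2 * (((1 + q) * ((1 + q) * (1 + q ^ 2)) * ((1 + q + q ^ 2) * (1 + q ^ 3))) * (q ^ 24 * (q - 1) ^ 4))

/-- twice the degree -/
theorem two_d2 {q : ℕ} (hodd : Odd q) : 2 * d2 q = q ^ 8 * (q ^ 2 - 1) * (q ^ 6 - 1) := by
  unfold d2
  apply Nat.mul_div_cancel'
  apply Dvd.dvd.mul_right
  apply Dvd.dvd.mul_left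
  obtain ⟨k, rfl⟩ := hodd
  refine ⟨2 * k ^ 2 + 2 * k, ?_⟩
  have : (2 * k + 1) ^ 2 = 2 * (2 * k ^ 2 + 2 * k) + 1 := by ring
  omega

theorem cast_pow_sub {q k : ℕ} (hq : 1 ≤ q) : ((q ^ k - 1 : ℕ) : ℤ) = (q : ℤ) ^ k - 1 := by
  have : 1 ≤ q ^ k := Nat.one_le_pow _ _ hq
  push_cast [Nat.cast_sub this]
  ring

/-- from `a N ≤ B`, `8 B < a D` -/
theorem fin_step {a N B D : ℤ} (ha : 0 < a) (h1 : a * N ≤ B) (h2 : 8 * B < a * D) : 8 * N < D := by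
  have h3 : a * (8 * N) < a * D := by linarith
  exact lt_of_mul_lt_mul_left h3 ha.le

theorem num1 {q : ℤ} (hq : 5 ≤ q) : 8 * (((1 + q) * (1 + q + q ^ 2) * (1 + q)) * (q ^ 24 * (q - 1) ^ 4)) <
    ((q - 1) * 3) * (q ^ 8 * (q ^ 2 - 1) * (q ^ 6 - 1)) ^ 2 := by
  rw [← sub_pos]
  have e : ((q - 1) * 3) * (q ^ 8 * (q ^ 2 - 1) * (q ^ 6 - 1)) ^ 2 -
      8 * (((1 + q) * (1 + q + q ^ 2) * (1 + q)) * (q ^ 24 * (q - 1) ^ 4)) =
      q ^ 16 * (q - 1) * ((q + 1) * (q - 1)) ^ 2 * (q ^ 11 * (3 * q - 8) + q ^ 6 * (8 * q ^ 2 - 6) + 3) := by ring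
  rw [e]
  have h0 : 0 < q := by linarith
  have h1 : 0 < q - 1 := by linarith
  have h2 : 0 < 3 * q - 8 := by linarith
  have h3 : 0 < 8 * q ^ 2 - 6 := by nlinarith
  positivity

theorem num2 {q : ℤ} (hq : 5 ≤ q) : 8 * (((1 + q) * (1 + q) * (1 + q ^ 2)) * (q ^ 24 * (q - 1) ^ 4)) <
    ((q - 1) * 3) * (q ^ 8 * (q ^ 2 - 1) * (q ^ 6 - 1)) ^ 2 := by
  refine lt_of_le_of_lt ?_ (num1 hq)
  have h0 : 0 < q := by linarith
  have h1 : 0 < q - 1 := by linarith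
  have e : 8 * (((1 + q) * (1 + q + q ^ 2) * (1 + q)) * (q ^ 24 * (q - 1) ^ 4)) -
     8 * (((1 + q) * (1 + q) * (1 + q ^ 2)) * (q ^ 24 * (q - 1) ^ 4)) = 8 * ((1 + q) ^ 2 * q * (q ^ 24 * (q - 1) ^ 4)) := by
    ring
  rw [← sub_nonneg, e]
  positivity

theorem num3 {q : ℤ} (hq : 5 ≤ q) :
    8 * (((1 + q) * ((1 + q) * (1 + q ^ 2)) * ((1 + q + q ^ 2) * (1 + q ^ 3))) * (q ^ 24 * (q - 1) ^ 4)) <
    q ^ 7 * (q ^ 8 * (q ^ 2 - 1) * (q ^ 6 - 1)) ^ 2 := by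
  rw [← sub_pos]
  have e : q ^ 7 * (q ^ 8 * (q ^ 2 - 1) * (q ^ 6 - 1)) ^ 2 -
      8 * (((1 + q) * ((1 + q) * (1 + q ^ 2)) * ((1 + q + q ^ 2) * (1 + q ^ 3))) * (q ^ 24 * (q - 1) ^ 4)) =
      q ^ 23 * (q ^ 2 - 1) ^ 2 * (q ^ 6 - 1) * (q ^ 4 * (q ^ 2 - 8) + 8 * q ^ 2 * (q - 1) + 8 * q - 1) := by ring
  rw [e]
  have h0 : 0 < q := by linarith
  have h1 : 0 < q - 1 := by linarith
  have h2 : 0 < q ^ 2 - 8 := by nlinarith
  have h3 : 0 < q ^ 2 - 1 := by nlinarith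
  have h4 : 0 < q ^ 6 - 1 := by
    have : q ^ 6 - 1 = (q ^ 2 - 1) * (q ^ 4 + q ^ 2 + 1) := by ring
    rw [this]
    positivity
  have h5 : 0 < q ^ 4 * (q ^ 2 - 8) + 8 * q ^ 2 * (q - 1) + 8 * q - 1 := by
    have : 0 < q ^ 4 * (q ^ 2 - 8) + 8 * q ^ 2 * (q - 1) := by positivity
    linarith
  positivity

theorem num4 {q : ℤ} (hq : 5 ≤ q) :
    8 * (2 * (((1 + q) * ((1 + q) * (1 + q ^ 2)) * ((1 + q + q ^ 2) * (1 + q ^ 3))) * (q ^ 24 * (q - 1) ^ 4))) <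
    ((q - 1) ^ 2 * q ^ 5) * (q ^ 8 * (q ^ 2 - 1) * (q ^ 6 - 1)) ^ 2 := by
  rw [← sub_pos]
  have e : ((q - 1) ^ 2 * q ^ 5) * (q ^ 8 * (q ^ 2 - 1) * (q ^ 6 - 1)) ^ 2 -
      8 * (2 * (((1 + q) * ((1 + q) * (1 + q ^ 2)) * ((1 + q + q ^ 2) * (1 + q ^ 3))) * (q ^ 24 * (q - 1) ^ 4))) =
      (q - 1) * q ^ 21 * (q ^ 2 - 1) ^ 2 * (q ^ 6 - 1) *
        (q ^ 7 - q ^ 6 - 16 * q ^ 5 - 16 * q ^ 3 - q + 1) := by ring
  rw [e]
  have h0 : 0 < q := by linarith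
  have h1 : 0 < q - 1 := by linarith
  have h3 : 0 < q ^ 2 - 1 := by nlinarith
  have h4 : 0 < q ^ 6 - 1 := by
    have : q ^ 6 - 1 = (q ^ 2 - 1) * (q ^ 4 + q ^ 2 + 1) := by ring
    rw [this]
    positivity
  have h5 : 0 < q ^ 7 - q ^ 6 - 16 * q ^ 5 - 16 * q ^ 3 - q + 1 := by
    obtain ⟨x, rfl⟩ : ∃ x : ℤ, q = x + 5 := ⟨q - 5, by ring⟩
    have hx : 0 ≤ x := by linarith
    ring_nf
    positivity
  positivity

theorem num5 {q : ℤ} (hq : 5 ≤ q) : 8 * (q ^ 16 * ((q - 1) * (q ^ 2 - 1) * (q ^ 4 - 1) * (q ^ 6 - 1))) <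
    (q ^ 8 * (q ^ 2 - 1) * (q ^ 6 - 1)) ^ 2 := by
  rw [← sub_pos]
  have e : (q ^ 8 * (q ^ 2 - 1) * (q ^ 6 - 1)) ^ 2 - 8 * (q ^ 16 * ((q - 1) * (q ^ 2 - 1) * (q ^ 4 - 1) * (q ^ 6 - 1))) =
      q ^ 16 * (q ^ 2 - 1) ^ 2 * (q ^ 6 - 1) * (q ^ 3 * (q ^ 3 - 8) + 8 * (q ^ 2 - q) + 7) := by ring
  rw [e]
  have h0 : 0 < q := by linarith
  have h3 : 0 < q ^ 2 - 1 := by nlinarith
  have h4 : 0 < q ^ 6 - 1 := by
    have : q ^ 6 - 1 = (q ^ 2 - 1) * (q ^ 4 + q ^ 2 + 1) := by ring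
    rw [this]
    positivity
  have h5 : 0 < q ^ 2 - q := by nlinarith
  have h6 : 0 < q ^ 3 - 8 := by nlinarith [sq_nonneg (q - 2)]
  positivity

/-- **The numbers.** -/
theorem cas_num {q p N : ℕ} (hodd : Odd q) (hq : 5 ≤ q) (hp : 3 ≤ p) (h : Cas q p N) : 2 * N < d2 q ^ 2 := by
  have h2 := two_d2 hodd
  have hq1 : 1 ≤ q := by omega
  have hqz : (5 : ℤ) ≤ (q : ℤ) := by exact_mod_cast hq
  have h0 : (0 : ℤ) < (q : ℤ) - 1 := by linarith
  have h0' : (0 : ℤ) < (q : ℤ) := by linarith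
  suffices h8 : 8 * (N : ℤ) < ((q : ℤ) ^ 8 * ((q : ℤ) ^ 2 - 1) * ((q : ℤ) ^ 6 - 1)) ^ 2 by
    have h3 : ((2 * d2 q : ℕ) : ℤ) = (q : ℤ) ^ 8 * ((q : ℤ) ^ 2 - 1) * ((q : ℤ) ^ 6 - 1) := by
      rw [h2, Nat.cast_mul, Nat.cast_mul, cast_pow_sub hq1, cast_pow_sub hq1, Nat.cast_pow]
    rw [← h3] at h8
    have h4 : 8 * N < (2 * d2 q) ^ 2 := by exact_mod_cast h8
    have h5 : (2 * d2 q) ^ 2 = 4 * d2 q ^ 2 := by ring
    omega
  have hs : ((q - 1 : ℕ) : ℤ) = (q : ℤ) - 1 := by push_cast [Nat.cast_sub hq1]; ring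
  rcases h with h | h | h | h
  · have h5 : (q - 1) * 3 * N ≤ _ := le_trans (Nat.mul_le_mul_right _ (Nat.mul_le_mul_left _ hp)) h
    have h6 := (Nat.cast_le (α := ℤ)).2 h5
    push_cast [hs] at h6
    exact fin_step (by positivity) h6 (num1 hqz)
  · have h5 : (q - 1) * 3 * N ≤ _ := le_trans (Nat.mul_le_mul_right _ (Nat.mul_le_mul_left _ hp)) h
    have h6 := (Nat.cast_le (α := ℤ)).2 h5
    push_cast [hs] at h6
    exact fin_step (by positivity) h6 (num2 hqz)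
  · have h6 := (Nat.cast_le (α := ℤ)).2 h
    push_cast [hs] at h6
    exact fin_step (by positivity) h6 (num3 hqz)
  · have h6 := (Nat.cast_le (α := ℤ)).2 h
    push_cast [hs] at h6
    exact fin_step (by positivity) h6 (num4 hqz)

section

variable {K : Type u} [Field K]

/-- the four cases -/
theorem cb_cases [Finite K] {p : ℕ} [Fact p.Prime] [CharP K p]
    (h3 : OC3 K) (h0 : OB3 K)
    (hZ : ∀ u ∈ RGD.Sup (XX chevF4 4 K) (RGD.Pos cF hF.isCartan),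
      (∀ v ∈ RGD.Sup (XX chevF4 4 K) (RGD.Pos cF hF.isCartan), u * v = v * u) → u ∈ XT K)
    {u : ↥(chevF4.group K)} (hu1 : u ≠ 1) {e : ℕ} (hue : u ^ p ^ e = 1) (hl : ¬ Lng u) :
    Cas (Nat.card K) p (Nat.card ↥(centralizer ({u} : Set ↥(chevF4.group K)))) := by
  have hW := finite_W hF cF
  have hfin : Finite ↥(chevF4.group K) := inferInstance
  have hFil := KFacts.RgdFiltChev.filt (K := K) hF cF p
  have hG := KFacts.RgdFilt.GG_eq_top (T := TT chevF4 K) (G1_eq_top hF (K := K) cF)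
  have R := rgd (K := K) hF cF p
  have hK : IsPGroup p (zpowers u) := by
    rintro ⟨y, n, rfl⟩
    refine ⟨e, Subtype.ext ?_⟩
    show (u ^ n) ^ p ^ e = 1
    rw [← zpow_natCast, ← zpow_mul, mul_comm, zpow_mul, zpow_natCast, hue, one_zpow]
  obtain ⟨g, J, hJ, hle, hN⟩ := borel_tits hFil hG hK (by rw [Ne, zpowers_eq_bot]; exact hu1)
  obtain ⟨v, hv, hvu⟩ : ∃ v ∈ VK K J, g * v * g⁻¹ = u := by
    obtain ⟨v, hv, hvu⟩ := hle (mem_zpowers u)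
    exact ⟨v, hv, hvu⟩
  have hvu' : v = g⁻¹ * u * g := by rw [← hvu]; group
  have hlv : ¬ Lng v := fun hcon => hl (Lng.conj g (hvu' ▸ hcon))
  have hv1 : v ≠ 1 := by
    rintro rfl
    apply hu1
    rw [← hvu]
    group
  have hCv : centralizer {v} ≤ PK K J := by
    intro x hx
    have h1 : g * x * g⁻¹ ∈ cj g (PK K J) := by
      apply hN
      refine centralizer_le_normalizer _ ?_
      rw [mem_centralizer_iff]
      rintro y ⟨n, rfl⟩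
      have h2 : Commute u (g * x * g⁻¹) := by
        have h3 := mem_centralizer_singleton_iff.1 hx
        show u * (g * x * g⁻¹) = g * x * g⁻¹ * u
        rw [← hvu]
        calc g * v * g⁻¹ * (g * x * g⁻¹) = g * (v * x) * g⁻¹ := by group
          _ = g * (x * v) * g⁻¹ := by rw [h3]
          _ = g * x * g⁻¹ * (g * v * g⁻¹) := by group
      exact h2.zpow_left n
    obtain ⟨y, hy, hyx⟩ := h1
    have h2 : y = x := (MulAut.conj g).injective hyx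
    exact h2 ▸ hy
  have hcard : Nat.card ↥(centralizer ({u} : Set ↥(chevF4.group K))) = Nat.card ↥(centralizer ({v} : Set ↥(chevF4.group K))) := by
    rw [hvu', card_cent_conj]
  rw [hcard]
  have hvU : v ∈ RGD.Sup (XX chevF4 4 K) (RGD.Pos cF hF.isCartan) := VJ_le_U J hv
  have hgen : ∀ J' : Set (Fin 4), J ⊆ J' →
      (Nat.card K - 1) * p * Nat.card ↥(centralizer ({v} : Set ↥(chevF4.group K))) ≤ Nat.card ↥(PK K J') := by
    intro J' hJJ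
    have hnc : ∃ w ∈ RGD.Sup (XX chevF4 4 K) (RGD.Pos cF hF.isCartan), w * v ≠ v * w := by
      by_contra hcon
      push Not at hcon
      refine hlv ⟨1, ?_⟩
      rw [one_mul, inv_one, mul_one]
      exact hZ v hvU fun w hw => (hcon w hw).symm
    obtain ⟨w, hw, hwv⟩ := hnc
    have h1 := card_gen p hvU hv1 hw hwv hCv
    exact le_trans h1 (H744.FC.card_le_of_subset hJJ)
  have e3 : ({0, 1, 2} : Set (Fin 4)) = {k | k ≠ 3} := by
    ext j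
    simp only [Set.mem_insert_iff, Set.mem_singleton_iff, Set.mem_ofPred_eq]
    revert j
    decide
  have e0 : ({1, 2, 3} : Set (Fin 4)) = {k | k ≠ 0} := by
    ext j
    simp only [Set.mem_insert_iff, Set.mem_singleton_iff, Set.mem_ofPred_eq]
    revert j
    decide
  rcases H744.FC.sub_cases hJ with rfl | rfl | h1 | h1 | h1
  · rw [e3] at hv hCv
    right; right; left
    rw [← H744.FC.card_ne3]
    refine le_trans ?_ (cls_mul_le hCv)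
    exact Nat.mul_le_mul_right _ (h3 v hv fun hcon => hlv ⟨1, by rwa [one_mul, inv_one, mul_one]⟩)
  · rw [e0] at hv hCv
    right; right; right
    rw [← H744.FC.card_ne0]
    calc (Nat.card K - 1) ^ 2 * Nat.card K ^ 5 * Nat.card ↥(centralizer ({v} : Set ↥(chevF4.group K)))
        ≤ 2 * Nat.card ↥(cls (PK K {k | k ≠ 0}) v) * Nat.card ↥(centralizer ({v} : Set ↥(chevF4.group K))) :=
          Nat.mul_le_mul_right _ (h0 v hv hlv)
      _ = 2 * (Nat.card ↥(cls (PK K {k | k ≠ 0}) v) * Nat.card ↥(centralizer ({v} : Set ↥(chevF4.group K)))) := by ring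
      _ ≤ _ := Nat.mul_le_mul_left _ (cls_mul_le hCv)
  · left
    rw [← H744.FC.card_013 (J := {0, 1, 3}) (by simp)]
    exact hgen _ h1
  · left
    rw [← H744.FC.card_023 (J := {0, 2, 3}) (by simp)]
    exact hgen _ h1
  · right; left
    rw [← H744.FC.card_12 (J := {1, 2}) (by simp)]
    exact hgen _ h1

theorem odd_q [Finite K] {p : ℕ} [Fact p.Prime] [CharP K p] (hp : p ≠ 2) : Odd (Nat.card K) := by
  have := Fintype.ofFinite K
  obtain ⟨n, hn, hcard⟩ := FiniteField.card K p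
  rw [Nat.card_eq_fintype_card, hcard]
  exact ((Fact.out : p.Prime).odd_of_ne_two hp).pow

/-- the mixed elements, `q ≥ 5` odd -/
theorem mixed_gen [Finite K] {p : ℕ} [Fact p.Prime] [CharP K p] (hp : p ≠ 2) (hq : 5 ≤ Nat.card K) : Mixed K p := by
  intro u s hus hu1 hu hs1 hs
  have h1 := Cfsg.Agent.H962.FC.card_mixed p Cfsg.Agent.H374.TC.Cu.c16 hus hu1 hu hs1 hs
  refine lt_of_le_of_lt (Nat.mul_le_mul_left 2 h1) ?_
  have h2 := two_d2 (odd_q (K := K) hp)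
  set q := Nat.card K
  have hq1 : 1 ≤ q := by omega
  have hqz : (5 : ℤ) ≤ (q : ℤ) := by exact_mod_cast hq
  have hs : ((q - 1 : ℕ) : ℤ) = (q : ℤ) - 1 := by push_cast [Nat.cast_sub hq1]; ring
  have h8 := num5 hqz
  have h3 : ((2 * d2 q : ℕ) : ℤ) = (q : ℤ) ^ 8 * ((q : ℤ) ^ 2 - 1) * ((q : ℤ) ^ 6 - 1) := by
    rw [h2, Nat.cast_mul, Nat.cast_mul, cast_pow_sub hq1, cast_pow_sub hq1, Nat.cast_pow]
  have h6 : ((q ^ 16 * Cfsg.Agent.H962.FC.MP q : ℕ) : ℤ) =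
      (q : ℤ) ^ 16 * (((q : ℤ) - 1) * ((q : ℤ) ^ 2 - 1) * ((q : ℤ) ^ 4 - 1) * ((q : ℤ) ^ 6 - 1)) := by
    unfold Cfsg.Agent.H962.FC.MP
    push_cast [hs]
    ring
  rw [← h3, ← h6] at h8
  have h4 : 8 * (q ^ 16 * Cfsg.Agent.H962.FC.MP q) < (2 * d2 q) ^ 2 := by exact_mod_cast h8
  have h5 : (2 * d2 q) ^ 2 = 4 * d2 q ^ 2 := by ring
  omega

/-- **The bound for all odd `q ≥ 5`**, from its parts. -/
theorem cbg_of [Finite K] {p : ℕ} [Fact p.Prime] [CharP K p] (hp : p ≠ 2) (hq : 5 ≤ Nat.card K)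
    (h3 : OC3 K) (h0 : OB3 K)
    (hZ : ∀ u ∈ RGD.Sup (XX chevF4 4 K) (RGD.Pos cF hF.isCartan),
      (∀ v ∈ RGD.Sup (XX chevF4 4 K) (RGD.Pos cF hF.isCartan), u * v = v * u) → u ∈ XT K)
    (hM : Mixed K p) : CB K p := by
  intro g hg hl
  have hfin : Finite ↥(chevF4.group K) := inferInstance
  have hodd : Odd (Nat.card K) := odd_q (p := p) hp
  have hp3 : 3 ≤ p := by
    have := (Fact.out : p.Prime).two_le
    omega
  obtain ⟨i, j, k, m, hij, hi, hj, hm⟩ := Cfsg.Agent.H548.CosetMod.exists_parts p g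
  set u := g ^ i with hu
  set s := g ^ j with hs
  have hus : u * s = s * u := by rw [hu, hs, ← pow_add, ← pow_add, add_comm]
  have hu1 : u ≠ 1 := by
    intro hcon
    rw [hcon, one_mul] at hij
    rw [hij] at hg
    have h1 : p ∣ m := hg.trans (orderOf_dvd_of_pow_eq_one hj)
    exact (Nat.Prime.coprime_iff_not_dvd Fact.out).1 hm h1
  by_cases hlu : Lng u
  · obtain ⟨a, ha⟩ := hlu
    have hs1 : s ≠ 1 := by
      intro hcon
      rw [hcon, mul_one] at hij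
      exact hl ⟨a, by rwa [hij]⟩
    have h1 := hM (a * u * a⁻¹) (a * s * a⁻¹) (by
        calc a * u * a⁻¹ * (a * s * a⁻¹) = a * (u * s) * a⁻¹ := by group
          _ = a * (s * u) * a⁻¹ := by rw [hus]
          _ = a * s * a⁻¹ * (a * u * a⁻¹) := by group) (by
        intro hcon
        apply hu1
        have : u = a⁻¹ * (a * u * a⁻¹) * a := by group
        rw [this, hcon]
        group) ha (by
        intro hcon
        apply hs1
        have : s = a⁻¹ * (a * s * a⁻¹) * a := by group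
        rw [this, hcon]
        group) (by
        have h2 : orderOf (a * s * a⁻¹) ∣ m := by
          apply orderOf_dvd_of_pow_eq_one
          rw [conj_pow, hj]
          group
        exact Nat.Coprime.coprime_dvd_left h2 hm.symm)
    have h2 : a * u * a⁻¹ * (a * s * a⁻¹) = a⁻¹⁻¹ * g * a⁻¹ := by
      rw [hij]
      group
    rw [h2, card_cent_conj] at h1
    exact h1
  · refine lt_of_le_of_lt ?_ (cas_num hodd hq hp3 (cb_cases (p := p) h3 h0 hZ hu1 hi hlu))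
    refine Nat.mul_le_mul_left _ (Nat.card_le_card_of_injective (Subgroup.inclusion ?_) (Subgroup.inclusion_injective _))
    intro y hy
    rw [mem_centralizer_singleton_iff] at hy ⊢
    have h1 : Commute y g := hy
    exact h1.pow_right i

/-- `2 ≠ 0` -/
theorem two_ne' {p : ℕ} [Fact p.Prime] [CharP K p] (hp : p ≠ 2) : (2 : K) ≠ 0 := by
  intro h2
  have h3 : ((2 : ℕ) : K) = 0 := by exact_mod_cast h2
  rw [CharP.cast_eq_zero_iff K p] at h3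
  exact hp ((Nat.prime_dvd_prime_iff_eq Fact.out Nat.prime_two).1 h3)

/-- **The bound for all odd `q ≥ 5`.** -/
theorem cbg [Finite K] {p : ℕ} [Fact p.Prime] [CharP K p] (hp : p ≠ 2) (hq : 5 ≤ Nat.card K) : CB K p :=
  cbg_of hp hq (oc3 (two_ne' hp)) (ob3 (two_ne' hp)) (fun _ hu hc => Cfsg.Agent.H7.FC.center_U (two_ne' hp) hu hc)
    (mixed_gen hp hq)

/-- the bound, for `g` whose class has order divisible by `p` -/
theorem hcbg [Finite K] {p : ℕ} [Fact p.Prime] [CharP K p] (hp : p ≠ 2) (hq : 5 ≤ Nat.card K)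
    (g : ↥(chevF4.group K)) (hg : p ∣ orderOf g)
    (hi : p ∣ (centralizer ({g} : Set ↥(chevF4.group K))).index) :
    2 * Nat.card ↥(centralizer ({g} : Set ↥(chevF4.group K))) < d2 (Nat.card K) ^ 2 :=
  cbg hp hq g hg fun hl => index_of_lng p hl hi

end

end Cfsg.Agent.H520.FC
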