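import Cfsg.Agent.H520.FC.Gen

/-!
# `F₄(q)`, `q = 11, 13`: `10 |C(g)| < d2²` (helper520; S2452)
-/

set_option autoImplicit false
set_option linter.unusedSectionVars false

namespace Cfsg.Agent.H520.FC

open Subgroup CoxeterSystem Cfsg.Agent.ChevalleyStructure.CoxeterGeom Cfsg.Agent.Tits.Core
  Cfsg.Agent.Tits.Exchange Cfsg.Agent.Nodes.Reps Cfsg.Agent.Nodes.BNOf Cfsg.Agent.Nodes.StabComb
  Cfsg.Agent.Nodes.Bruhat Cfsg.Agent.Nodes.OppDec Cfsg.Agent.Nodes.LeviDec Cfsg.Agent.Nodes.NormX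
  Cfsg.Agent.Nodes.Coroot Cfsg.Agent.Nodes.RGDChev Cfsg.Agent.KFacts.RgdPar Cfsg.Agent.KFacts.RgdTI
  Cfsg.Agent.KFacts.RgdCent Cfsg.Agent.KFacts.RgdChevCoord Cfsg.Agent.Nodes.ChevCls
  Cfsg.Agent.OddHalf.NI.ModelChev Cfsg.Agent.H225.PPow Cfsg.Agent.Tits.Roots
open Cfsg.Lie Cfsg.Agent.ChevalleyStructure Cfsg.Agent.ChevalleyStructure.Elts
  Cfsg.Agent.ChevalleyStructure.RootVec Cfsg.Agent.ChevalleyStructure.NPerm
  Cfsg.Agent.ChevalleyStructure.CoxeterGeomTypes
open Cfsg.Agent.H701.F43.Cent (hF cF)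

universe u

variable {K : Type u} [Field K]

/-- the bound with the factor `c`, from the numbers -/
theorem cbn [Finite K] {p : ℕ} [Fact p.Prime] [CharP K p] (hp : p ≠ 2) {c : ℕ}
    (hn : ∀ N, Cas (Nat.card K) p N → c * N < d2 (Nat.card K) ^ 2)
    (hm : c * (Nat.card K ^ 16 * Cfsg.Agent.H962.FC.MP (Nat.card K)) < d2 (Nat.card K) ^ 2)
    {g : ↥(chevF4.group K)} (hg : p ∣ orderOf g) (hl : ¬ Lng g) :
    c * Nat.card ↥(centralizer ({g} : Set ↥(chevF4.group K))) < d2 (Nat.card K) ^ 2 := by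
  have hfin : Finite ↥(chevF4.group K) := inferInstance
  have h2 : (2 : K) ≠ 0 := two_ne' hp
  obtain ⟨i, j, k, m, hij, hi, hj, hmm⟩ := Cfsg.Agent.H548.CosetMod.exists_parts p g
  set u := g ^ i with hu
  set s := g ^ j with hs
  have hus : u * s = s * u := by rw [hu, hs, ← pow_add, ← pow_add, add_comm]
  have hu1 : u ≠ 1 := by
    intro hcon
    rw [hcon, one_mul] at hij
    rw [hij] at hg
    have h1 : p ∣ m := hg.trans (orderOf_dvd_of_pow_eq_one hj)
    exact (Nat.Prime.coprime_iff_not_dvd Fact.out).1 hmm h1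
  by_cases hlu : Lng u
  · obtain ⟨a, ha⟩ := hlu
    have hs1 : s ≠ 1 := by
      intro hcon
      rw [hcon, mul_one] at hij
      exact hl ⟨a, by rwa [hij]⟩
    have h1 := Cfsg.Agent.H962.FC.card_mixed p Cfsg.Agent.H374.TC.Cu.c16 (u := a * u * a⁻¹) (s := a * s * a⁻¹) (by
        calc a * u * a⁻¹ * (a * s * a⁻¹) = a * (u * s) * a⁻¹ := by group
          _ = a * (s * u) * a⁻¹ := by rw [hus]
          _ = a * s * a⁻¹ * (a * u * a⁻¹) := by group) (by
        intro hcon
        apply hu1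
        have : u = a⁻¹ * (a * u * a⁻¹) * a := by group
        rw [this, hcon]
        group) ha (by
        intro hcon
        apply hs1
        have : s = a⁻¹ * (a * s * a⁻¹) * a := by group
        rw [this, hcon]
        group) (by
        have h2 : orderOf (a * s * a⁻¹) ∣ m := by
          apply orderOf_dvd_of_pow_eq_one
          rw [conj_pow, hj]
          group
        exact Nat.Coprime.coprime_dvd_left h2 hmm.symm)
    have h2 : a * u * a⁻¹ * (a * s * a⁻¹) = a⁻¹⁻¹ * g * a⁻¹ := by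
      rw [hij]
      group
    rw [h2, card_cent_conj] at h1
    exact lt_of_le_of_lt (Nat.mul_le_mul_left c h1) hm
  · refine lt_of_le_of_lt ?_ (hn _ (cb_cases (p := p) (oc3 h2) (ob3 h2)
      (fun _ hu hc => Cfsg.Agent.H7.FC.center_U h2 hu hc) hu1 hi hlu))
    refine Nat.mul_le_mul_left _ (Nat.card_le_card_of_injective (Subgroup.inclusion ?_) (Subgroup.inclusion_injective _))
    intro y hy
    rw [mem_centralizer_singleton_iff] at hy ⊢
    have h1 : Commute y g := hy
    exact h1.pow_right i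

/-- `K` is the prime field -/
theorem p_eq' [Finite K] (p : ℕ) [hp : Fact p.Prime] [CharP K p] (hq : (Nat.card K).Prime) : p = Nat.card K := by
  have := Fintype.ofFinite K
  obtain ⟨n, hn, hcard⟩ := FiniteField.card K p
  have h1 : p ∣ Nat.card K := by
    rw [Nat.card_eq_fintype_card, hcard]
    exact dvd_pow_self p n.ne_zero
  exact (Nat.prime_dvd_prime_iff_eq hp.out hq).1 h1

/-- **The bound with the factor `10`**, `q = 11, 13`. -/
theorem cb10 {p : ℕ} [Fact p.Prime] [CharP K p] (hq : Nat.card K = 11 ∨ Nat.card K = 13) {g : ↥(chevF4.group K)}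
    (hg : p ∣ orderOf g) (hl : ¬ Lng g) :
    10 * Nat.card ↥(centralizer ({g} : Set ↥(chevF4.group K))) < d2 (Nat.card K) ^ 2 := by
  have hfin : Finite K := Nat.finite_of_card_ne_zero (by omega)
  have hpq : p = Nat.card K := p_eq' p (by rcases hq with h | h <;> rw [h] <;> norm_num)
  have hp : p ≠ 2 := by omega
  refine cbn hp (fun N hN => ?_) ?_ hg hl
  · rw [hpq] at hN
    rcases hq with h | h <;> rw [h] at hN ⊢ <;> rw [d2] <;> unfold Cas at hN <;> norm_num at hN ⊢ <;> omega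
  · rcases hq with h | h <;> rw [h, Cfsg.Agent.H962.FC.MP, d2] <;> norm_num

/-- the same, for `g` whose class has order divisible by `p` -/
theorem hcb10 {p : ℕ} [Fact p.Prime] [CharP K p] (hq : Nat.card K = 11 ∨ Nat.card K = 13) (g : ↥(chevF4.group K))
    (hg : p ∣ orderOf g) (hi : p ∣ (centralizer ({g} : Set ↥(chevF4.group K))).index) :
    10 * Nat.card ↥(centralizer ({g} : Set ↥(chevF4.group K))) < d2 (Nat.card K) ^ 2 := by
  have hfin : Finite K := Nat.finite_of_card_ne_zero (by omega)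
  exact cb10 hq hg fun hl => index_of_lng p hl hi

end Cfsg.Agent.H520.FC
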